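import Cfsg.Agent.H209.EPX.Defs
import Cfsg.Agent.H742.EX.Q2Grp

/-!
# S5745: the predicate `Six G` (helper548): no `EPS H N e` with `k = 1`, `T = Sp₆(2)` in `G`
-/

set_option autoImplicit false

namespace Cfsg.Agent.H548.EPX

open Cfsg Cfsg.Agent.H209.EPX

/-- no extremely primitive core free `H` of `G` with socle `T ≅ Sp₆(2)` -/
def Six (G : Type) [Group G] : Prop :=
  ∀ (H N : Subgroup G) (T : Type) [Group T] (e : N ≃* (Fin 1 → T)), EPS H N e →
    ∀ (K : Type) [Field K] [Fintype K], Fintype.card K = 2 → ∀ _ : T ≃* PSp 3 K, False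

end Cfsg.Agent.H548.EPX
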